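/-
The centraliser of a reflection in the Hall–Janko group: extraspecial of order 32 extended by
the alternating group of degree 5.
-/
import Cfsg.Agent.H15.J2.Simple
import Cfsg.Agent.H15.J2.Data.Centralizer
import Cfsg.Agent.H24.Extraspecial
import Cfsg.Agent.H58.ExtraspecialCongr

set_option autoImplicit false

namespace Cfsg.Agent.H15.J2

open Cfsg.Spor

noncomputable section

/-- The stabiliser of the base line. -/
abbrev Stab : Subgroup P315 := lvlGrp lvlGens1

/-- Every transversal element moves the base reflection unless it fixes the base line. -/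
def piMoveOK : Bool :=
  lvlTrans0.all fun t => Nat.beq (wAct t 304) 304 ||
    six.any fun x => !Nat.beq (wAct (t ++ [0]) x) (wAct (0 :: t) x)

theorem piMove_ok : piMoveOK = true := by decide +kernel

theorem lPerm_zero : lPerm 0 = pi base0 := by rw [pi_base]; exact lPerm_gen 0

theorem wPerm_zero : wPerm [0] = pi base0 := by simp [wPerm, lPerm_zero]

theorem pi_eq_base {m : Fin 315} (h : pi m = pi base0) : m = base0 := by
  have hj := List.all_eq_true.1 trans_ok m (List.mem_range.2 m.isLt)
  simp only [List.any_eq_true, Bool.and_eq_true] at hj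
  obtain ⟨t, ht, hv, he⟩ := hj
  have hp := List.all_eq_true.1 piMove_ok t ht
  simp only [Bool.or_eq_true, List.any_eq_true, Bool.not_eq_true'] at hp
  have hm : wPerm t base0 = m := Fin.ext (by rw [wPerm_apply hv]; exact Nat.eq_of_beq_eq_true he)
  rcases hp with hp | ⟨x, hx, hne⟩
  · rw [← hm]
    exact Fin.ext (by rw [wPerm_apply hv]; exact Nat.eq_of_beq_eq_true hp)
  · exfalso
    have hx' : x < 315 := by
      simp only [six, List.mem_cons, List.not_mem_nil, or_false] at hx; omega
    have hc : wPerm (t ++ [0]) = wPerm (0 :: t) := by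
      have hc1 := pi_conj (wPerm_mem t) base0
      rw [hm, h] at hc1
      rw [wPerm_append, wPerm_zero, show (0 :: t) = [0] ++ t from rfl, wPerm_append, wPerm_zero]
      exact mul_inv_eq_iff_eq_mul.1 hc1
    have hv1 : validW (t ++ [0]) = true := by
      simp only [validW, List.all_append, List.all_cons, List.all_nil, Bool.and_true] at *
      rw [hv]; rfl
    have hv2 : validW (0 :: t) = true := by
      simp only [validW, List.all_cons] at *
      rw [hv]; rfl
    have := congrArg (fun p : P315 => ((p ⟨x, hx'⟩ : Fin 315) : ℕ)) hc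
    simp only [wPerm_apply hv1, wPerm_apply hv2] at this
    rw [Bool.eq_false_iff] at hne
    exact hne (by rw [this]; exact Nat.beq_refl _)

theorem mem_stab_iff_commute {g : P315} (hg : g ∈ G315) :
    g ∈ Stab ↔ g * pi base0 = pi base0 * g := by
  rw [mem_stab0, ← mul_inv_eq_iff_eq_mul, pi_conj hg]
  exact ⟨fun h => by rw [h.2], fun h => ⟨hg, pi_eq_base h⟩⟩

/-- The index of the block of a point among the ten. -/
def blkOf (p : ℕ) : ℕ := tenPts.idxOf p / 2

/-- The test of the block action of one letter. -/
def blockOK (l : ℕ) : Bool :=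
  Nat.blt l 13 && (List.range 10).all fun i =>
    tenPts.contains (lAct l (tenPts.getD i 0)) &&
      Nat.beq (blkOf (lAct l (tenPts.getD i 0)))
        (letterSig l ⟨i / 2 % 5, Nat.mod_lt _ (by norm_num)⟩)

theorem blocks_ok : lvlGens1.all blockOK = true := by decide +kernel

theorem sigs_even : ∀ l ∈ lvlGens1, Equiv.Perm.sign (letterSig l) = 1 := by decide +kernel

theorem tenPts_lt : ∀ i < 10, tenPts.getD i 0 < 315 := by decide +kernel

/-- The `i`th of the ten points. -/
def ten (i : Fin 10) : Fin 315 := ⟨tenPts.getD i 0, tenPts_lt i i.isLt⟩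

theorem tenPts_idx : ∀ i : Fin 10, blkOf (ten i) = (i : ℕ) / 2 := by decide +kernel

/-- The block of the `i`th point. -/
def blk (i : Fin 10) : Fin 5 := ⟨(i : ℕ) / 2, by omega⟩

/-- `g` permutes the blocks by `σ`. -/
def BlockRel (g : P315) (σ : Equiv.Perm (Fin 5)) : Prop :=
  ∀ i, ∃ j, g (ten i) = ten j ∧ blk j = σ (blk i)

theorem blockRel_letter {l : ℕ} (hl : l ∈ lvlGens1) : BlockRel (lPerm l) (letterSig l) := by
  intro i
  have h := List.all_eq_true.1 blocks_ok l hl
  simp only [blockOK, Bool.and_eq_true, List.all_eq_true, List.contains_iff_mem] at h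
  obtain ⟨h13, h⟩ := h
  obtain ⟨hm, hb⟩ := h i (List.mem_range.2 i.isLt)
  obtain ⟨j, hj, ej⟩ := List.mem_iff_getElem.1 hm
  have hlen : tenPts.length = 10 := by decide +kernel
  refine ⟨⟨j, hlen ▸ hj⟩, Fin.ext ?_, Fin.ext ?_⟩
  · rw [lPerm_apply (blt_lt h13)]
    simp only [ten, List.getD_eq_getElem?_getD, List.getElem?_eq_getElem hj, Option.getD_some, ej]
  · have e := tenPts_idx ⟨j, hlen ▸ hj⟩
    simp only [ten, List.getD_eq_getElem?_getD, List.getElem?_eq_getElem hj, Option.getD_some] at e
    rw [ej] at e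
    have hb' := Nat.eq_of_beq_eq_true hb
    rw [e] at hb'
    have ei : (⟨(i : ℕ) / 2 % 5, Nat.mod_lt _ (by norm_num)⟩ : Fin 5) = blk i :=
      Fin.ext (Nat.mod_eq_of_lt (by omega))
    rw [ei] at hb'
    exact hb'

theorem ten_injective : Function.Injective ten := by
  intro i j h
  have : ∀ i j : Fin 10, (ten i : ℕ) = ten j → i = j := by decide +kernel
  exact this i j (congrArg Fin.val h)

theorem BlockRel.unique {g : P315} {σ τ : Equiv.Perm (Fin 5)} (h : BlockRel g σ)
    (h' : BlockRel g τ) : σ = τ := by
  refine Equiv.ext fun b => ?_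
  obtain ⟨j, e1, e2⟩ := h ⟨2 * (b : ℕ), by omega⟩
  obtain ⟨j', e1', e2'⟩ := h' ⟨2 * (b : ℕ), by omega⟩
  have hb : blk ⟨2 * (b : ℕ), by omega⟩ = b := Fin.ext (by simp [blk])
  rw [hb] at e2 e2'
  rw [← e2, ← e2', ten_injective (e1.symm.trans e1')]

theorem BlockRel.mul {g h : P315} {σ τ : Equiv.Perm (Fin 5)} (hg : BlockRel g σ)
    (hh : BlockRel h τ) : BlockRel (g * h) (σ * τ) := by
  intro i
  obtain ⟨j, e1, e2⟩ := hh i
  obtain ⟨k, f1, f2⟩ := hg j
  exact ⟨k, by rw [Equiv.Perm.mul_apply, e1, f1], by rw [f2, e2]; rfl⟩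

theorem BlockRel.one : BlockRel 1 1 := fun i => ⟨i, rfl, rfl⟩

theorem blockRel_exists {g : P315} (hg : g ∈ Stab) :
    ∃ σ : alternatingGroup (Fin 5), BlockRel g σ := by
  rw [Stab, lvlGrp, ← Subgroup.mem_toSubmonoid, Subgroup.closure_toSubmonoid_of_finite] at hg
  induction hg using Submonoid.closure_induction with
  | mem x hx =>
    obtain ⟨l, hl, rfl⟩ := List.mem_map.1 hx
    exact ⟨⟨letterSig l, Equiv.Perm.mem_alternatingGroup.2 (sigs_even l hl)⟩, blockRel_letter hl⟩
  | one => exact ⟨1, BlockRel.one⟩
  | mul x y _ _ hx hy =>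
    obtain ⟨σ, hσ⟩ := hx
    obtain ⟨τ, hτ⟩ := hy
    exact ⟨σ * τ, hσ.mul hτ⟩

/-- The action of the stabiliser on the five blocks. -/
def blockHom : Stab →* alternatingGroup (Fin 5) where
  toFun g := Classical.choose (blockRel_exists g.2)
  map_one' := Subtype.ext ((Classical.choose_spec (blockRel_exists (1 : Stab).2)).unique BlockRel.one)
  map_mul' g h := Subtype.ext ((Classical.choose_spec (blockRel_exists (g * h).2)).unique
    ((Classical.choose_spec (blockRel_exists g.2)).mul (Classical.choose_spec (blockRel_exists h.2))))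

theorem blockHom_spec (g : Stab) : BlockRel (g : P315) (blockHom g : Equiv.Perm (Fin 5)) :=
  Classical.choose_spec (blockRel_exists g.2)

/-- Words in the stabiliser letters. -/
def stabW (w : List ℕ) : Bool := validW w && w.all fun l => lvlGens1.contains l

/-- The element named by a stabiliser word, or the identity. -/
def sEl (w : List ℕ) : Stab :=
  if h : stabW w = true then ⟨wPerm w, wPerm_lvl (by simp only [stabW, Bool.and_eq_true] at h; exact h.2)⟩
  else 1

theorem sEl_val {w : List ℕ} (h : stabW w = true) : (sEl w : P315) = wPerm w := by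
  simp [sEl, h]

theorem sEl_apply {w : List ℕ} (h : stabW w = true) (k : Fin 315) :
    ((sEl w : P315) k : ℕ) = wAct w k := by
  rw [sEl_val h]; simp only [stabW, Bool.and_eq_true] at h; exact wPerm_apply h.1 k

/-- The blocks reached by a word, as a number. -/
def blockKey (w : List ℕ) : ℕ :=
  (List.range 5).foldr (fun b acc => 5 * acc + blkOf (wAct w (tenPts.getD (2 * b) 0))) 0

theorem img_checks : (imgWords.all stabW && nodupB (imgWords.map blockKey)) = true ∧
    imgWords.length = 60 := by decide +kernel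

theorem blockKey_congr {u v : List ℕ} (hu : stabW u = true) (hv : stabW v = true)
    (h : blockHom (sEl u) = blockHom (sEl v)) : blockKey u = blockKey v := by
  have key : ∀ b < 5, blkOf (wAct u (tenPts.getD (2 * b) 0)) = blkOf (wAct v (tenPts.getD (2 * b) 0)) := by
    intro b hb
    obtain ⟨j, e1, e2⟩ := blockHom_spec (sEl u) ⟨2 * b, by omega⟩
    obtain ⟨j', e1', e2'⟩ := blockHom_spec (sEl v) ⟨2 * b, by omega⟩
    have a1 := congrArg Fin.val e1
    have a2 := congrArg Fin.val e1'
    rw [sEl_apply hu] at a1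
    rw [sEl_apply hv] at a2
    have b1 := congrArg Fin.val e2
    have b2 := congrArg Fin.val e2'
    rw [h] at b1
    simp only [ten] at a1 a2
    rw [a1, a2]
    have c1 := tenPts_idx j
    have c2 := tenPts_idx j'
    simp only [ten] at c1 c2
    rw [c1, c2]
    exact b1.trans b2.symm
  simp only [blockKey, List.range_succ, List.range_zero, List.nil_append, List.cons_append,
    List.foldr_cons, List.foldr_nil]
  rw [key 0 (by norm_num), key 1 (by norm_num), key 2 (by norm_num), key 3 (by norm_num),
    key 4 (by norm_num)]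

theorem card_alt5 : Nat.card (alternatingGroup (Fin 5)) = 60 := by
  rw [nat_card_alternatingGroup, Nat.card_fin]; rfl

theorem blockHom_surjective : Function.Surjective blockHom := by
  obtain ⟨h, hl⟩ := img_checks
  simp only [Bool.and_eq_true, List.all_eq_true] at h
  let f : Fin imgWords.length → alternatingGroup (Fin 5) := fun i => blockHom (sEl (imgWords.get i))
  have hf : Function.Injective f := by
    intro i j e
    have := blockKey_congr (h.1 _ (imgWords.get_mem i)) (h.1 _ (imgWords.get_mem j)) e
    have hi : i.1 < (imgWords.map blockKey).length := by simp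
    have hj : j.1 < (imgWords.map blockKey).length := by simp
    exact Fin.ext (((nodup_of_nodupB h.2).getElem_inj_iff (hi := hi) (hj := hj)).1
      (by simpa using this))
  have := hf.bijective_of_nat_card_le (by rw [card_alt5, Nat.card_fin, hl])
  intro σ
  obtain ⟨i, hi⟩ := this.2 σ
  exact ⟨_, hi⟩

theorem ker_card : Nat.card blockHom.ker = 32 := by
  have h := Subgroup.card_eq_card_quotient_mul_card_subgroup blockHom.ker
  rw [stab_card, Nat.card_congr (QuotientGroup.quotientKerEquivOfSurjective _ blockHom_surjective).toEquiv,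
    card_alt5] at h
  omega

/-- A word equals `1` or the base reflection. -/
def isZ (u v : List ℕ) : Bool := sameOn u v || sameOn u (0 :: v)

/-- The tests on the 32 kernel words. -/
def kerOK : Bool :=
  (kerWords.all fun w => stabW w &&
    (List.range 10).all fun i => Nat.beq (blkOf (wAct w (tenPts.getD i 0))) (i / 2)) &&
  (nodupB (kerWords.map fun w => six.foldr (fun x acc => 512 * acc + wAct w x) 0) &&
  ((kerWords.all fun w => isZ (w ++ w) []) &&
  ((kerWords.all fun u => kerWords.all fun v => isZ (u ++ v) (v ++ u)) &&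
  ((kerWords.all fun u => isZ u [] ||
      kerWords.any fun v => six.any fun x => !Nat.beq (wAct (u ++ v) x) (wAct (v ++ u) x)) &&
    (lvlGens1.contains 0 && kerWords.any fun v => sameOn v [0])))))

theorem ker_ok : kerOK = true := by decide +kernel

theorem kerWords_length : kerWords.length = 32 := by decide +kernel

theorem sEl_mem_ker {w : List ℕ} (hw : w ∈ kerWords) : sEl w ∈ blockHom.ker := by
  have h := ker_ok
  simp only [kerOK, Bool.and_eq_true, List.all_eq_true] at h
  obtain ⟨hs, hb⟩ := h.1 w hw
  rw [MonoidHom.mem_ker]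
  refine Subtype.ext ((blockHom_spec (sEl w)).unique ?_)
  intro i
  obtain ⟨j, e1, -⟩ := blockHom_spec (sEl w) i
  refine ⟨j, e1, Fin.ext ?_⟩
  have hb' := Nat.eq_of_beq_eq_true (hb (i : ℕ) (List.mem_range.2 i.isLt))
  have e1' := congrArg Fin.val e1
  rw [sEl_apply hs] at e1'
  simp only [ten] at e1'
  rw [e1'] at hb'
  have c := tenPts_idx j
  simp only [ten] at c
  rw [c] at hb'
  exact hb'

theorem ker_mem_words {g : Stab} (hg : g ∈ blockHom.ker) : ∃ w ∈ kerWords, g = sEl w := by
  let f : Fin kerWords.length → blockHom.ker := fun i =>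
    ⟨sEl (kerWords.get i), sEl_mem_ker (kerWords.get_mem i)⟩
  have h := ker_ok
  simp only [kerOK, Bool.and_eq_true, List.all_eq_true] at h
  have hf : Function.Injective f := by
    intro i j e
    have e' : (sEl (kerWords.get i) : P315) = sEl (kerWords.get j) :=
      congrArg (fun x : blockHom.ker => ((x : Stab) : P315)) e
    have hact : ∀ x, x < 315 → wAct (kerWords.get i) x = wAct (kerWords.get j) x := fun x hx => by
      rw [← sEl_apply (h.1 _ (kerWords.get_mem i)).1 ⟨x, hx⟩, e',
        sEl_apply (h.1 _ (kerWords.get_mem j)).1 ⟨x, hx⟩]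
    have hi : i.1 < (kerWords.map fun w => six.foldr (fun x acc => 512 * acc + wAct w x) 0).length := by
      simp
    have hj : j.1 < (kerWords.map fun w => six.foldr (fun x acc => 512 * acc + wAct w x) 0).length := by
      simp
    refine Fin.ext (((nodup_of_nodupB h.2.1).getElem_inj_iff (hi := hi) (hj := hj)).1 ?_)
    rw [List.getElem_map, List.getElem_map]
    simp only [six, List.foldr_cons, List.foldr_nil]
    simp only [List.get_eq_getElem] at hact
    rw [hact 304 (by norm_num), hact 313 (by norm_num), hact 314 (by norm_num),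
      hact 72 (by norm_num), hact 49 (by norm_num), hact 51 (by norm_num)]
  have := hf.bijective_of_nat_card_le (by rw [ker_card, Nat.card_fin, kerWords_length])
  obtain ⟨i, hi⟩ := this.2 ⟨g, hg⟩
  exact ⟨_, kerWords.get_mem i, (congrArg Subtype.val hi).symm⟩

/-- The base reflection as an element of the kernel. -/
def zK : blockHom.ker :=
  ⟨⟨pi base0, (mem_stab_iff_commute (pi_mem base0)).2 rfl⟩, by
    have h := ker_ok
    simp only [kerOK, Bool.and_eq_true, List.any_eq_true] at h
    obtain ⟨-, v, hv, hs⟩ := h.2.2.2.2.2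
    have e : (⟨pi base0, (mem_stab_iff_commute (pi_mem base0)).2 rfl⟩ : Stab) = sEl v := by
      have h1 := ker_ok
      simp only [kerOK, Bool.and_eq_true, List.all_eq_true] at h1
      refine Subtype.ext ?_
      rw [sEl_val (h1.1 v hv).1, sameOn_sound hs, wPerm_zero]
    rw [e]; exact sEl_mem_ker hv⟩

theorem isZ_sound {u v : List ℕ} (h : isZ u v = true) :
    wPerm u = wPerm v ∨ wPerm u = pi base0 * wPerm v := by
  simp only [isZ, Bool.or_eq_true] at h
  refine h.imp sameOn_sound fun h' => ?_
  rw [sameOn_sound h', show (0 :: v) = [0] ++ v from rfl, wPerm_append, wPerm_zero]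

theorem zK_ne_one : zK ≠ 1 := by
  intro h
  have h' : pi base0 = 1 := congrArg (fun x : blockHom.ker => ((x : Stab) : P315)) h
  rw [pi_base] at h'
  have : ∃ k : ℕ, k < 315 ∧ k ∈ [72, 49, 51, 0, 1, 2] ∧ gTab 0 k ≠ k := by decide +kernel
  obtain ⟨k, hk, -, hne⟩ := this
  exact hne (congrArg Fin.val (Equiv.Perm.ext_iff.1 h' ⟨k, hk⟩))

theorem zK_central : zK ∈ Subgroup.center blockHom.ker := by
  rw [Subgroup.mem_center_iff]
  intro g
  refine Subtype.ext (Subtype.ext ?_)
  exact (mem_stab_iff_commute (mem_stab0.1 g.1.2).1).1 g.1.2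

theorem ker_center : ((Subgroup.center blockHom.ker : Subgroup blockHom.ker) : Set blockHom.ker) =
    {1, zK} := by
  have h := ker_ok
  simp only [kerOK, Bool.and_eq_true, List.all_eq_true] at h
  ext g
  constructor
  · intro hg
    obtain ⟨u, hu, eu⟩ := ker_mem_words g.2
    have huv := (h.1 u hu).1
    have hd := h.2.2.2.2.1 u hu
    simp only [Bool.or_eq_true, List.any_eq_true, Bool.not_eq_true'] at hd
    rcases hd with hz | ⟨v, hv, x, hx, hne⟩
    · rcases isZ_sound hz with e | e
      · left
        refine Subtype.ext (Subtype.ext ?_)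
        rw [eu, sEl_val huv, e]; simp [wPerm]
      · right
        refine Subtype.ext (Subtype.ext ?_)
        rw [eu, sEl_val huv, e]; simp [wPerm, zK]
    · exfalso
      have hvv := (h.1 v hv).1
      have hcm := Subgroup.mem_center_iff.1 hg ⟨sEl v, sEl_mem_ker hv⟩
      have e : wPerm (v ++ u) = wPerm (u ++ v) := by
        have := congrArg (fun x : blockHom.ker => ((x : Stab) : P315)) hcm
        simp only [Subgroup.coe_mul, eu, sEl_val huv, sEl_val hvv] at this
        rw [wPerm_append, wPerm_append]; exact this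
      have hx' : x < 315 := by
        simp only [six, List.mem_cons, List.not_mem_nil, or_false] at hx; omega
      have hval : ∀ a b, stabW a = true → stabW b = true → validW (a ++ b) = true := by
        intro a b ha hb
        simp only [stabW, Bool.and_eq_true] at ha hb
        simp only [validW, List.all_append, Bool.and_eq_true]
        exact ⟨ha.1, hb.1⟩
      have := congrArg (fun p : P315 => ((p ⟨x, hx'⟩ : Fin 315) : ℕ)) e
      simp only [wPerm_apply (hval v u hvv huv), wPerm_apply (hval u v huv hvv)] at this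
      rw [Bool.eq_false_iff] at hne
      exact hne (by rw [this]; exact Nat.beq_refl _)
  · rintro (rfl | rfl)
    · exact one_mem _
    · exact zK_central

theorem ker_extraspecial : Cfsg.IsExtraspecial 2 blockHom.ker := by
  have h := ker_ok
  simp only [kerOK, Bool.and_eq_true, List.all_eq_true] at h
  have hmem : ∀ g : blockHom.ker, g = 1 ∨ g = zK → g ∈ Subgroup.center blockHom.ker := by
    intro g hg
    rw [← SetLike.mem_coe, ker_center]; exact hg
  apply Cfsg.Agent.H24.isExtraspecial_of
  · exact IsPGroup.of_card (n := 5) (by rw [ker_card]; norm_num)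
  · rw [← SetLike.coe_sort_coe, ker_center, Nat.card_coe_set_eq,
      Set.ncard_pair zK_ne_one.symm]
  · intro hc
    have h2 : Nat.card (Subgroup.center blockHom.ker) = 32 := by
      rw [hc, Subgroup.card_top, ker_card]
    rw [← SetLike.coe_sort_coe, ker_center, Nat.card_coe_set_eq,
      Set.ncard_pair zK_ne_one.symm] at h2
    norm_num at h2
  · intro a b
    obtain ⟨u, hu, eu⟩ := ker_mem_words a.2
    obtain ⟨v, hv, ev⟩ := ker_mem_words b.2
    apply hmem
    rcases isZ_sound (h.2.2.2.1 u hu v hv) with e | e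
    · left
      refine Subtype.ext (Subtype.ext ?_)
      simp only [wPerm_append] at e
      simp only [commutatorElement_def, Subgroup.coe_mul, Subgroup.coe_inv, eu, ev,
        sEl_val (h.1 u hu).1, sEl_val (h.1 v hv).1, Subgroup.coe_one]
      rw [e]; group
    · right
      refine Subtype.ext (Subtype.ext ?_)
      simp only [wPerm_append] at e
      simp only [commutatorElement_def, Subgroup.coe_mul, Subgroup.coe_inv, eu, ev,
        sEl_val (h.1 u hu).1, sEl_val (h.1 v hv).1]
      show _ = pi base0
      rw [e]; group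
  · intro a
    obtain ⟨u, hu, eu⟩ := ker_mem_words a.2
    apply hmem
    rcases isZ_sound (h.2.2.1 u hu) with e | e
    · left
      refine Subtype.ext (Subtype.ext ?_)
      simp only [wPerm_append] at e
      simp only [pow_two, Subgroup.coe_mul, eu, sEl_val (h.1 u hu).1, e, Subgroup.coe_one]
      simp [wPerm]
    · right
      refine Subtype.ext (Subtype.ext ?_)
      simp only [wPerm_append] at e
      simp only [pow_two, Subgroup.coe_mul, eu, sEl_val (h.1 u hu).1, e]
      simp [wPerm, zK]

/-- The centraliser of a reflection in `J2` is the stabiliser of the base line. -/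
theorem centralizer_equiv (f : Equiv.Perm icoLeech) (hf : IsIcoReflection f) (hfm : f ∈ twoJ2) :
    Nonempty (Subgroup.centralizer {(QuotientGroup.mk ⟨f, hfm⟩ : J2)} ≃* Stab) := by
  obtain ⟨k, rfl⟩ := isIcoReflection_iff.1 hf
  obtain ⟨σ, hσ, rfl⟩ := transitive k
  have hx : ((j2Equiv (QuotientGroup.mk ⟨refP (σ base0), hfm⟩) : G315) : P315) = pi (σ base0) := rfl
  generalize (QuotientGroup.mk ⟨refP (σ base0), hfm⟩ : J2) = x at hx
  let ψ : J2 ≃* G315 := j2Equiv.trans (MulAut.conj ⟨σ, hσ⟩⁻¹)
  have hψ : ∀ y, ((ψ y : G315) : P315) = σ⁻¹ * (j2Equiv y : P315) * σ := fun y => by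
    simp [ψ]
  have hψx : ((ψ x : G315) : P315) = pi base0 := by
    rw [hψ, hx, ← pi_conj hσ]; group
  have hC : ∀ y, y ∈ Subgroup.centralizer ({x} : Set J2) ↔ ((ψ y : G315) : P315) ∈ Stab := by
    intro y
    rw [mem_stab_iff_commute (ψ y).2, Subgroup.mem_centralizer_singleton_iff, ← hψx,
      ← ψ.injective.eq_iff, map_mul, map_mul, Subtype.ext_iff]
    constructor <;> intro e <;>
      first | exact e | exact e.symm
  refine ⟨MulEquiv.ofBijective
    (MonoidHom.mk' (fun y : Subgroup.centralizer ({x} : Set J2) =>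
      (⟨((ψ y : G315) : P315), (hC y).1 y.2⟩ : Stab))
      (fun a b => Subtype.ext (by simp [map_mul]))) ⟨?_, ?_⟩⟩
  · intro a b e
    exact Subtype.ext (ψ.injective (Subtype.ext (congrArg Subtype.val e :)))
  · rintro ⟨g, hg⟩
    refine ⟨⟨ψ.symm ⟨g, (mem_stab0.1 hg).1⟩, (hC _).2 ?_⟩, ?_⟩
    · rw [MulEquiv.apply_symm_apply]; exact hg
    · refine Subtype.ext ?_
      show ((ψ (ψ.symm ⟨g, _⟩) : G315) : P315) = g
      rw [MulEquiv.apply_symm_apply]

theorem centralizer_structure (f : Equiv.Perm icoLeech) (hf : IsIcoReflection f) (hfm : f ∈ twoJ2) :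
    ∃ (Q : Subgroup (Subgroup.centralizer {(QuotientGroup.mk ⟨f, hfm⟩ : J2)})) (_ : Q.Normal),
      Nat.card Q = 32 ∧ Cfsg.IsExtraspecial 2 Q ∧
      Nonempty ((Subgroup.centralizer {(QuotientGroup.mk ⟨f, hfm⟩ : J2)}) ⧸ Q ≃*
        alternatingGroup (Fin 5)) := by
  obtain ⟨e⟩ := centralizer_equiv f hf hfm
  let χ := blockHom.comp e.toMonoidHom
  have hsur : Function.Surjective χ := blockHom_surjective.comp e.surjective
  let eQ : χ.ker ≃* blockHom.ker :=
    { toFun := fun a => ⟨e a, a.2⟩
      invFun := fun b => ⟨e.symm b, by simp [χ, MonoidHom.mem_ker, MonoidHom.mem_ker.1 b.2]⟩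
      left_inv := fun a => Subtype.ext (e.symm_apply_apply a)
      right_inv := fun b => Subtype.ext (e.apply_symm_apply b)
      map_mul' := fun a b => Subtype.ext (map_mul e (a : Subgroup.centralizer _) b) }
  refine ⟨χ.ker, MonoidHom.normal_ker χ, ?_, ?_, ⟨QuotientGroup.quotientKerEquivOfSurjective χ hsur⟩⟩
  · rw [Nat.card_congr eQ.toEquiv, ker_card]
  · exact Cfsg.Agent.H58.isExtraspecial_congr eQ.symm ker_extraspecial

end

end Cfsg.Agent.H15.J2
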