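/-
The number of minimal vectors and of reflections.
-/
import Cfsg.Agent.H15.J2.Group

set_option autoImplicit false

namespace Cfsg.Agent.H15.J2

open Quaternion Cfsg.Spor

noncomputable section

theorem unitCodes_nodup : nodupB unitCodes = true := by decide +kernel

theorem unitCodes_lt : ((List.range 120).all fun i => Nat.blt (unitCodes.getD i 0) 4294967296) = true := by
  decide +kernel

theorem unitCodes_length : unitCodes.length = 120 := by decide +kernel

theorem dec_injOn {a b : ℕ} (ha : a < 4294967296) (hb : b < 4294967296) (h : dec a = dec b) :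
    a = b := by
  simp only [dec, dig, dn, Qz.mk.injEq, ZT.mk.injEq, natShr, natMod, Nat.mul_eq] at h
  norm_num at h
  obtain ⟨⟨h0, h1⟩, ⟨h2, h3⟩, ⟨h4, h5⟩, h6, h7⟩ := h
  omega

theorem unitQ_inj {i j : ℕ} (hi : i < 120) (hj : j < 120)
    (h : toH (unitQ i) = toH (unitQ j)) : i = j := by
  have e := dec_injOn (blt_lt (List.all_eq_true.1 unitCodes_lt i (List.mem_range.2 hi)))
    (blt_lt (List.all_eq_true.1 unitCodes_lt j (List.mem_range.2 hj))) (toH_injective h)
  have hi' : i < unitCodes.length := by rw [unitCodes_length]; exact hi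
  have hj' : j < unitCodes.length := by rw [unitCodes_length]; exact hj
  simp only [List.getD_eq_getElem?_getD, List.getElem?_eq_getElem hi',
    List.getElem?_eq_getElem hj', Option.getD_some] at e
  exact (nodup_of_nodupB unitCodes_nodup).getElem_inj_iff.1 e

/-- The parametrisation of the minimal vectors. -/
def minVec (p : Fin 120 × Fin 315) : Vec := toH (unitQ p.1) • (repL p.2 : Vec)

theorem minVec_injective : Function.Injective minVec := by
  rintro ⟨i, j⟩ ⟨k, l⟩ h
  simp only [minVec] at h
  have hu : ∀ m : Fin 120, IsUnit1 (toH (unitQ m)) := fun m => (unit_spec m.isLt).2.2.1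
  have hjl : j = l := OnLine.unique ⟨_, hu i, rfl⟩ ⟨_, hu k, h⟩
  subst hjl
  have := congrArg (fun v => qip v (repL j : Vec)) h
  simp only [qip_smul_left, repL_norm] at this
  rw [← coe_four] at this
  have h4 : ((4 : ℝ) : ℍ[ℝ]) ≠ 0 := by
    intro h0
    have := congrArg QuaternionAlgebra.re h0
    simp at this
  exact Prod.ext (Fin.ext (unitQ_inj i.isLt k.isLt (mul_right_cancel₀ h4 this))) rfl

theorem minVec_range :
    {r : Vec | r ∈ icoLeech ∧ qip r r = 4} = Set.range minVec := by
  ext r
  constructor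
  · rintro ⟨hr, hn⟩
    obtain ⟨i, hi, k, hk, rfl⟩ := min_vec_normal hr hn
    exact ⟨(⟨i, hi⟩, ⟨k, hk⟩), rfl⟩
  · rintro ⟨⟨i, j⟩, rfl⟩
    exact ⟨smul_mem_icoLeech (unit_spec i.isLt).1 (repL j).2,
      qip_smul_self _ _ (repL_norm j) (unit_spec i.isLt).2.2.2⟩

theorem minVec_card : {r : Vec | r ∈ icoLeech ∧ qip r r = 4}.ncard = 37800 := by
  rw [minVec_range, ← Set.image_univ, Set.ncard_image_of_injective _ minVec_injective]
  simp

theorem refl_card : {f : Equiv.Perm icoLeech | IsIcoReflection f}.ncard = 315 := by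
  have : {f : Equiv.Perm icoLeech | IsIcoReflection f} = Set.range refP := by
    ext f; exact isIcoReflection_iff
  rw [this, ← Set.image_univ, Set.ncard_image_of_injective _ refP_injective]
  simp

theorem refl_transitive {f f' : Equiv.Perm icoLeech} (hf : IsIcoReflection f)
    (hf' : IsIcoReflection f') : ∃ g ∈ twoJ2, g * f * g⁻¹ = f' := by
  obtain ⟨i, rfl⟩ := isIcoReflection_iff.1 hf
  obtain ⟨j, rfl⟩ := isIcoReflection_iff.1 hf'
  obtain ⟨s, hs, es⟩ := transitive i
  obtain ⟨t, ht, et⟩ := transitive j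
  have : t * s⁻¹ ∈ twoHom.range := twoHom_range ▸ G315.mul_mem ht (G315.inv_mem hs)
  obtain ⟨g, hg⟩ := this
  refine ⟨g, g.2, ?_⟩
  rw [refP_conj', hg, Equiv.Perm.mul_apply, ← es, Equiv.Perm.coe_inv, Equiv.symm_apply_apply, et]

end

end Cfsg.Agent.H15.J2
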