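/-
The data of the recognition statements for the Hall–Janko group, read off the model.
-/
import Cfsg.Agent.H15.J2.Centralizer

set_option autoImplicit false

namespace Cfsg.Agent.H15.J2

open Cfsg.Spor

noncomputable section

/-- `[7]` is an involution of the stabiliser that is not conjugate to the base reflection and moves
a kernel word modulo the centre. -/
def secondOK : Bool :=
  stabW [7] && (sameOn ([7] ++ [7]) [] && (!sameOn [7] [] &&
    ((lvlTrans0.all fun t => validW t &&
        six.any fun x => !Nat.beq (wAct ([7] ++ t) x) (wAct (t ++ [0]) x)) &&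
    (kerWords.contains [5] &&
      ((six.any fun x => !Nat.beq (wAct [7, 5] x) (wAct [5, 7] x)) &&
       (six.any fun x => !Nat.beq (wAct [7, 5] x) (wAct [0, 5, 7] x)))))))

theorem second_ok : secondOK = true := by decide +kernel

theorem ne_of_moves {u v : List ℕ} (hu : validW u = true) (hv : validW v = true)
    (h : (six.any fun x => !Nat.beq (wAct u x) (wAct v x)) = true) : wPerm u ≠ wPerm v := by
  intro e
  simp only [List.any_eq_true, Bool.not_eq_true'] at h
  obtain ⟨x, hx, hne⟩ := h
  have hx' : x < 315 := by simp only [six, List.mem_cons, List.not_mem_nil, or_false] at hx; omega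
  have := congrArg (fun p : P315 => ((p ⟨x, hx'⟩ : Fin 315) : ℕ)) e
  simp only [wPerm_apply hu, wPerm_apply hv] at this
  rw [Bool.eq_false_iff] at hne
  exact hne (by rw [this]; exact Nat.beq_refl _)

theorem valid_append {a b : List ℕ} (ha : validW a = true) (hb : validW b = true) :
    validW (a ++ b) = true := by
  simp only [validW, List.all_append, Bool.and_eq_true] at *
  exact ⟨ha, hb⟩

theorem second_not_pi (k : Fin 315) : wPerm [7] ≠ pi k := by
  have h := second_ok
  simp only [secondOK, Bool.and_eq_true, List.all_eq_true] at h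
  obtain ⟨hs, -, -, hmove, -⟩ := h
  have h7 : validW [7] = true := by decide +kernel
  have hj := List.all_eq_true.1 trans_ok k (List.mem_range.2 k.isLt)
  simp only [List.any_eq_true, Bool.and_eq_true] at hj
  obtain ⟨t, ht, hv, he⟩ := hj
  have hm : wPerm t base0 = k := Fin.ext (by rw [wPerm_apply hv]; exact Nat.eq_of_beq_eq_true he)
  obtain ⟨-, hne⟩ := hmove t ht
  intro e
  refine ne_of_moves (valid_append h7 hv) (valid_append hv (by decide +kernel)) hne ?_
  rw [wPerm_append, wPerm_append, wPerm_zero, e, ← hm, ← pi_conj (wPerm_mem t) base0]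
  group

theorem centralizer_ker_le :
    Subgroup.centralizer (blockHom.ker : Set Stab) ≤ blockHom.ker := by
  have hA : IsSimpleGroup (alternatingGroup (Fin 5)) := alternatingGroup.isSimpleGroup (by simp)
  have hn : ((Subgroup.centralizer (blockHom.ker : Set Stab)).map blockHom).Normal :=
    Subgroup.Normal.map inferInstance _ blockHom_surjective
  rcases hn.eq_bot_or_eq_top with hb | ht
  · exact (Subgroup.map_eq_bot_iff _).1 hb
  exfalso
  have h := second_ok
  simp only [secondOK, Bool.and_eq_true] at h
  obtain ⟨hs, -, -, -, h5, ha, hb⟩ := h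
  have h5m : [5] ∈ kerWords := List.contains_iff_mem.1 h5
  obtain ⟨c, hc, ec⟩ : blockHom (sEl [7]) ∈ (Subgroup.centralizer (blockHom.ker : Set Stab)).map
      blockHom := ht ▸ Subgroup.mem_top _
  have hk : c⁻¹ * sEl [7] ∈ blockHom.ker := by
    rw [MonoidHom.mem_ker, map_mul, map_inv, ec, inv_mul_cancel]
  have hku := sEl_mem_ker h5m
  obtain ⟨u, hu, eu⟩ := ker_mem_words hk
  have hh := ker_ok
  simp only [kerOK, Bool.and_eq_true, List.all_eq_true] at hh
  have h5s := (hh.1 [5] h5m).1
  have hus := (hh.1 u hu).1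
  have hcc : c * sEl [5] = sEl [5] * c :=
    ((Subgroup.mem_centralizer_iff.1 hc) _ hku).symm
  have e7 : wPerm [7] = (c : P315) * wPerm u := by
    rw [← sEl_val hs, ← sEl_val hus, ← eu]
    push_cast
    group
  have hcv : (c : P315) * wPerm [5] = wPerm [5] * c := by
    rw [← sEl_val h5s]
    exact congrArg Subtype.val hcc
  have hcz : (c : P315) * pi base0 = pi base0 * c :=
    (mem_stab_iff_commute (mem_stab0.1 c.2).1).1 c.2
  have v75 : validW [7, 5] = true := by decide +kernel
  have v57 : validW [5, 7] = true := by decide +kernel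
  have v057 : validW [0, 5, 7] = true := by decide +kernel
  have w75 : wPerm [7, 5] = wPerm [7] * wPerm [5] := by rw [← wPerm_append]; rfl
  have w57 : wPerm [5, 7] = wPerm [5] * wPerm [7] := by rw [← wPerm_append]; rfl
  have w057 : wPerm [0, 5, 7] = pi base0 * (wPerm [5] * wPerm [7]) := by
    rw [← w57, ← wPerm_zero, ← wPerm_append]; rfl
  rcases isZ_sound (hh.2.2.2.1 u hu [5] h5m) with e | e
  · refine ne_of_moves v75 v57 ha ?_
    rw [wPerm_append, wPerm_append] at e
    rw [w75, w57, e7, mul_assoc, e, ← mul_assoc, hcv, mul_assoc]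
  · refine ne_of_moves v75 v057 hb ?_
    rw [wPerm_append, wPerm_append] at e
    rw [w75, w057, e7, mul_assoc, e, ← mul_assoc, hcz, mul_assoc, ← mul_assoc (c : P315), hcv,
      mul_assoc (wPerm [5])]

/-- The hypotheses of the recognition statements hold in `J2`. -/
theorem recog_hyps : ∃ (z : J2) (Q : Subgroup (Subgroup.centralizer ({z} : Set J2))) (_ : Q.Normal),
    orderOf z = 2 ∧ Cfsg.IsExtraspecial 2 Q ∧ Nat.card Q = 32 ∧
      Subgroup.centralizer (Q : Set (Subgroup.centralizer ({z} : Set J2))) ≤ Q ∧
      Nonempty ((Subgroup.centralizer ({z} : Set J2)) ⧸ Q ≃* alternatingGroup (Fin 5)) ∧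
      (∃ x y : J2, orderOf x = 2 ∧ orderOf y = 2 ∧ ¬ IsConj x y) := by
  obtain ⟨f, hf⟩ : ∃ f : twoJ2, twoHom f = pi base0 :=
    ⟨⟨refP base0, twoJ2_eq.symm ▸ refP_mem base0⟩, rfl⟩
  have hrefl : IsIcoReflection (refP base0) := isIcoReflection_iff.2 ⟨base0, rfl⟩
  have hfm : refP base0 ∈ twoJ2 := twoJ2_eq.symm ▸ refP_mem base0
  let z : J2 := QuotientGroup.mk ⟨refP base0, hfm⟩
  have hz : ((j2Equiv z : G315) : P315) = pi base0 := rfl
  obtain ⟨e⟩ := centralizer_equiv (refP base0) hrefl hfm
  let χ := blockHom.comp e.toMonoidHom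
  have hsur : Function.Surjective χ := blockHom_surjective.comp e.surjective
  let eQ : χ.ker ≃* blockHom.ker :=
    { toFun := fun a => ⟨e a, a.2⟩
      invFun := fun b => ⟨e.symm b, by simp [χ, MonoidHom.mem_ker, MonoidHom.mem_ker.1 b.2]⟩
      left_inv := fun a => Subtype.ext (e.symm_apply_apply a)
      right_inv := fun b => Subtype.ext (e.apply_symm_apply b)
      map_mul' := fun a b => Subtype.ext (map_mul e (a : Subgroup.centralizer _) b) }
  have h2 : ∀ (x : J2), ((j2Equiv x : G315) : P315) * (j2Equiv x : P315) = 1 →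
      ((j2Equiv x : G315) : P315) ≠ 1 → orderOf x = 2 := by
    intro x hsq hne
    refine orderOf_eq_prime ?_ ?_
    · apply j2Equiv.injective
      rw [map_pow, map_one, pow_two]
      exact Subtype.ext hsq
    · intro he
      exact hne (by rw [he, map_one]; rfl)
  have hz2 : orderOf z = 2 := h2 z (by rw [hz, pi_sq]) (by
    rw [hz]
    intro h1
    exact zK_ne_one (Subtype.ext (Subtype.ext h1)))
  have hs := second_ok
  simp only [secondOK, Bool.and_eq_true] at hs
  obtain ⟨-, hsq, hne1, -⟩ := hs
  let y : J2 := j2Equiv.symm ⟨wPerm [7], wPerm_mem [7]⟩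
  have hy : ((j2Equiv y : G315) : P315) = wPerm [7] := by
    simp only [y, MulEquiv.apply_symm_apply]
  have hy2 : orderOf y = 2 := h2 y (by rw [hy, ← wPerm_append, sameOn_sound hsq]; rfl) (by
    rw [hy]
    intro h1
    simp only [Bool.not_eq_true', Bool.eq_false_iff] at hne1
    apply hne1
    simp only [sameOn, Bool.and_eq_true, List.all_eq_true]
    refine ⟨by decide +kernel, by decide +kernel, fun x hx => ?_⟩
    have hx' : x < 315 := by simp only [six, List.mem_cons, List.not_mem_nil, or_false] at hx; omega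
    have := congrArg (fun p : P315 => ((p ⟨x, hx'⟩ : Fin 315) : ℕ)) h1
    simp only [wPerm_apply (show validW [7] = true by decide +kernel), Equiv.Perm.coe_one, id_eq] at this
    rw [this]
    exact Nat.beq_refl _)
  refine ⟨z, χ.ker, MonoidHom.normal_ker χ, hz2, ?_, ?_, ?_,
    ⟨QuotientGroup.quotientKerEquivOfSurjective χ hsur⟩, z, y, hz2, hy2, ?_⟩
  · exact Cfsg.Agent.H58.isExtraspecial_congr eQ.symm ker_extraspecial
  · rw [Nat.card_congr eQ.toEquiv, ker_card]
  · intro a ha
    show e a ∈ blockHom.ker
    refine centralizer_ker_le (Subgroup.mem_centralizer_iff.2 fun b hb => ?_)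
    have := Subgroup.mem_centralizer_iff.1 ha (e.symm b) (by
      show e (e.symm b) ∈ blockHom.ker
      rw [e.apply_symm_apply]; exact hb)
    simpa using congrArg e this
  · intro hc
    obtain ⟨g, hg⟩ := isConj_iff.1 hc
    refine second_not_pi ((j2Equiv g : P315) base0) ?_
    rw [← pi_conj (j2Equiv g).2, ← hy, ← hg, map_mul, map_mul, map_inv]
    push_cast
    rw [hz]

end

end Cfsg.Agent.H15.J2
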